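import Cfsg.Agent.GTwoFourCover.Mono

/-!
Kernel checks of the multiplier certificates of the double cover of `G₂(4)`.
-/

set_option autoImplicit false
set_option maxRecDepth 100000

namespace CfsgLib.GTwoFourCover

open CfsgLib.CosetEnum

/-- A word in certificate elements as a word in letters. -/
def spell (W : List (List ℕ)) (w : List ℕ) : List ℕ := w.flatMap fun k => W.getD k []

/-- The relations of a certificate hold. -/
noncomputable def rulesOK (c : SchurPrime.Cert) (W : List (List ℕ)) : Bool :=
  c.rules.all fun R => sameOn (spell W R.1) (spell W R.2)

/-- A number telling normal forms apart. -/
noncomputable def code (base w : List ℕ) : ℕ :=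
  base.foldr (fun b acc => evalC w b + 8192 * acc) 0

/-- Strictly increasing. -/
def incr : List ℕ → Bool
  | a :: b :: l => a.blt b && incr (b :: l)
  | _ => true

/-- The normal forms are words in the generators and differ. -/
noncomputable def formsOK (n : ℕ) (W : List (List ℕ)) (base : List ℕ) (l : List (List ℕ)) : Bool :=
  base.all (fun b => b.blt 2016) && W.all (fun w => w.all fun x => x.blt 37) &&
    l.all (fun w => w.all fun x => x.blt n) && incr (l.map fun w => code base (spell W w))

theorem two_ok : SchurPrime.ok twoCert = true := by decide +kernel
theorem three_ok : SchurPrime.ok threeCert = true := by decide +kernel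
theorem five_ok : SchurPrime.ok fiveCert = true := by decide +kernel

theorem two_rules : rulesOK twoCert twoWords = true := by decide +kernel
theorem three_rules : rulesOK threeCert threeWords = true := by decide +kernel
theorem five_rules : rulesOK fiveCert fiveWords = true := by decide +kernel

theorem two_forms : formsOK 13 twoWords twoBase twoList = true := by decide +kernel
theorem three_forms : formsOK 3 threeWords threeBase threeList = true := by decide +kernel
theorem five_forms : formsOK 2 fiveWords fiveBase fiveList = true := by decide +kernel

theorem two_len : twoList.length = 8192 := by decide +kernel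
theorem three_len : threeList.length = 27 := by decide +kernel
theorem five_len : fiveList.length = 25 := by decide +kernel

theorem two_shape : twoCert.p = 2 ∧ twoCert.n = 13 := by decide +kernel
theorem three_shape : threeCert.p = 3 ∧ threeCert.n = 3 := by decide +kernel
theorem five_shape : fiveCert.p = 5 ∧ fiveCert.n = 2 := by decide +kernel

theorem seven_ok : sameOn (List.replicate 7 cycSeven).flatten [] = true := by decide +kernel
theorem thirteen_ok : sameOn (List.replicate 13 cycThirteen).flatten [] = true := by decide +kernel

theorem seven_moves : evalC cycSeven 0 % 2048 ≠ 0 := by decide +kernel
theorem thirteen_moves : evalC cycThirteen 0 % 2048 ≠ 0 := by decide +kernel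
theorem root_moves : evalC [0] 14 % 2048 ≠ 14 := by decide +kernel

theorem comm_ok : sameOn (commA ++ commB ++ [36]) (commB ++ commA) = true := by decide +kernel

end CfsgLib.GTwoFourCover
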