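import Cfsg.Agent.GTwoFourCover.Rels
import Cfsg.Agent.GTwoFourCover.Certs
import Cfsg.Agent.GTwoFour.Field
import Cfsg.Agent.GTwoFour.Hom

/-!
Steinberg's relations hold in the double cover modulo its centre.
-/

set_option autoImplicit false
set_option linter.style.haveILetI false
set_option maxRecDepth 100000

namespace CfsgLib.GTwoFourCover

open CfsgLib.CosetEnum CfsgLib.GTwoFour Cfsg.Lie

/-- The shifts. -/
noncomputable abbrev Shift : Subgroup ↥Cov := Subgroup.zpowers zC

instance shift_normal : Shift.Normal := ⟨fun n hn g => by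
  rw [Subgroup.mem_center_iff.1 ((Subgroup.zpowers_le.2 zC_central) hn) g, mul_inv_cancel_right]
  exact hn⟩

/-- A letter modulo the shifts. -/
noncomputable def qLetter (x : ℕ) : ↥Cov ⧸ Shift := QuotientGroup.mk' Shift (letterG x)

theorem of_zrel {w : List ℕ} (hw : zrel w = true) : gword qLetter w = 1 := by
  show gword (fun x => QuotientGroup.mk' Shift (letterG x)) w = 1
  rw [← gword_map, ← MonoidHom.mem_ker, QuotientGroup.ker_mk']
  exact gword_mem_zpowers hw

theorem gword_qLetter_append (u w : List ℕ) :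
    gword qLetter (u ++ w) = gword qLetter u * gword qLetter w := by
  simp [gword]

theorem qLetter_inv {x : ℕ} (hx : x < 36) : (qLetter x)⁻¹ = qLetter x := by
  have h := (below_iff _ _).1 square_ok x hx
  have h' := of_zrel h
  rw [gword_cons, gword_cons, gword_nil, mul_one] at h'
  exact inv_eq_of_mul_eq_one_right h'

theorem gword_reverse : ∀ w : List ℕ, (∀ x ∈ w, x < 36) →
    gword qLetter w.reverse = (gword qLetter w)⁻¹
  | [], _ => by simp [gword]
  | x :: w, h => by
    rw [List.reverse_cons, gword_qLetter_append,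
      gword_reverse w fun y hy => h y (List.mem_cons_of_mem _ hy), gword_cons, gword_cons,
      gword_nil, mul_one, mul_inv_rev, qLetter_inv (h x List.mem_cons_self)]

theorem conj_spec {g : ℕ} (hg : g < 4) {x : ℕ} (hx : x < 36) :
    conjOn g x < 36 ∧ qLetter (conjOn g x) = gword qLetter (conjWords.getD g []) * qLetter x *
      (gword qLetter (conjWords.getD g []))⁻¹ := by
  have h : conjOK g = true := by
    interval_cases g
    exacts [conj0, conj1, conj2, conj3]
  simp only [conjOK, Bool.and_eq_true, below_iff, List.all_eq_true, Nat.blt,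
    Nat.ble_eq] at h
  obtain ⟨hw, hm⟩ := h
  obtain ⟨hy, hz⟩ := hm x hx
  refine ⟨hy, ?_⟩
  have h' := of_zrel hz
  rw [conjRel, gword_qLetter_append, gword_qLetter_append, gword_qLetter_append,
    gword_reverse _ hw, gword_cons, gword_nil, mul_one, gword_cons, gword_nil, mul_one,
    mul_eq_one_iff_inv_eq] at h'
  have h'' := congrArg Inv.inv h'
  rw [inv_inv, qLetter_inv hy] at h''
  exact h''.symm

theorem map_conj {g : ℕ} (hg : g < 4) : ∀ w : List ℕ, (∀ x ∈ w, x < 36) →
    (∀ x ∈ w.map (conjOn g), x < 36) ∧ gword qLetter (w.map (conjOn g)) =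
      gword qLetter (conjWords.getD g []) * gword qLetter w *
        (gword qLetter (conjWords.getD g []))⁻¹
  | [], _ => by simp [gword]
  | x :: w, h => by
    obtain ⟨h1, h2⟩ := map_conj hg w fun y hy => h y (List.mem_cons_of_mem _ hy)
    obtain ⟨c1, c2⟩ := conj_spec hg (h x List.mem_cons_self)
    refine ⟨fun y hy => ?_, ?_⟩
    · rcases List.mem_cons.1 hy with rfl | hy
      exacts [c1, h1 y hy]
    · rw [List.map_cons, gword_cons, gword_cons, h2, c2]
      group

theorem derived_spec (k : ℕ) (hk : k < reps.length) : ∀ gs : List ℕ, (∀ g ∈ gs, g < 4) →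
    (∀ x ∈ derived (k, gs), x < 36) ∧ gword qLetter (derived (k, gs)) = 1
  | [], _ => by
    have h : repsOK (k % 4) = true := by
      have := Nat.mod_lt k (show 0 < 4 by norm_num)
      interval_cases hm : k % 4
      exacts [reps0, reps1, reps2, reps3]
    have h' := (below_iff _ _).1 h k hk
    simp only [beq_self_eq_true, cond_true, Bool.and_eq_true, List.all_eq_true, Nat.blt,
      Nat.ble_eq] at h'
    exact ⟨h'.1, of_zrel h'.2⟩
  | g :: gs, h => by
    obtain ⟨h1, h2⟩ := derived_spec k hk gs fun y hy => h y (List.mem_cons_of_mem _ hy)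
    obtain ⟨m1, m2⟩ := map_conj (h g List.mem_cons_self) _ h1
    refine ⟨m1, ?_⟩
    show gword qLetter ((derived (k, gs)).map (conjOn g)) = 1
    rw [m2, h2, mul_one, mul_inv_cancel]

theorem mem_zip_getElem {α β : Type} (l : List α) (m : List β) (i : ℕ) (h : i < l.length)
    (h' : i < m.length) : (l[i], m[i]) ∈ l.zip m := by
  rw [← List.getElem_zip (h := by rw [List.length_zip]; exact lt_min h h')]
  exact List.getElem_mem _

theorem of_mem_rels {w : List ℕ} (hw : w ∈ addRels ++ commRels ++ torusRels) :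
    gword qLetter w = 1 := by
  have h := deriv_ok
  simp only [derivOK, Bool.and_eq_true, decide_eq_true_eq, List.all_eq_true, beq_iff_eq,
    Nat.blt, Nat.ble_eq] at h
  obtain ⟨hlen, hall⟩ := h
  obtain ⟨i, hi, rfl⟩ := List.getElem_of_mem hw
  have hi2 : i < derivs.length := hlen ▸ hi
  obtain ⟨⟨he, hk⟩, hg⟩ := hall ((addRels ++ commRels ++ torusRels)[i], derivs[i])
    (mem_zip_getElem _ _ i hi hi2)
  dsimp only at he hk hg
  exact (congrArg (gword qLetter) he).trans (derived_spec _ hk _ hg).2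

/-- A root element with a code modulo the shifts. -/
noncomputable def qRoot (p : ℕ × ℕ) : ↥Cov ⧸ Shift :=
  match p.2 with
  | 0 => 1
  | t + 1 => qLetter (3 * p.1 + t)

theorem qRoot_zero (r : ℕ) : qRoot (r, 0) = 1 := rfl

theorem qRoot_inv {r t : ℕ} (hr : r < 12) (ht : t < 4) : (qRoot (r, t))⁻¹ = qRoot (r, t) := by
  cases t with
  | zero => exact inv_one
  | succ t => exact qLetter_inv (by omega)

/-- A word of root elements with codes modulo the shifts. -/
noncomputable def qWord (w : List (ℕ × ℕ)) : ↥Cov ⧸ Shift := (w.map qRoot).prod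

theorem gword_wl : ∀ w : List (ℕ × ℕ), gword qLetter (wl w) = qWord w
  | [] => rfl
  | (r, 0) :: w => by
    show gword qLetter (wl w) = qRoot (r, 0) * qWord w
    rw [qRoot_zero, one_mul, gword_wl w]
  | (r, t + 1) :: w => by
    show gword qLetter ((3 * r + (t + 1) - 1) :: wl w) = qRoot (r, t + 1) * qWord w
    rw [gword_cons, gword_wl w]
    rfl

theorem qWord_append (u w : List (ℕ × ℕ)) : qWord (u ++ w) = qWord u * qWord w := by
  simp [qWord]

theorem qWord_reverse : ∀ w : List (ℕ × ℕ), (∀ p ∈ w, p.1 < 12 ∧ p.2 < 4) →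
    qWord w.reverse = (qWord w)⁻¹
  | [], _ => by simp [qWord]
  | p :: w, h => by
    rw [List.reverse_cons, qWord_append,
      qWord_reverse w fun q hq => h q (List.mem_cons_of_mem _ hq)]
    simp only [qWord, List.map_cons, List.map_nil, List.prod_cons, List.prod_nil, mul_one,
      mul_inv_rev]
    rw [qRoot_inv (h p List.mem_cons_self).1 (h p List.mem_cons_self).2]

theorem mem_units {a : ℕ} (ha : 0 < a) (ha4 : a < 4) : a ∈ units := by
  interval_cases a <;> decide

theorem qAdd {r a b : ℕ} (hr : r < 12) (ha : 0 < a) (ha4 : a < 4) (hb : 0 < b) (hb4 : b < 4)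
    (hab : a ^^^ b < 4) : qRoot (r, a) * qRoot (r, b) = qRoot (r, a ^^^ b) := by
  have h := of_mem_rels (w := wl [(r, a), (r, b), (r, a ^^^ b)]) (by
    refine List.mem_append_left _ (List.mem_append_left _ ?_)
    simp only [addRels, List.mem_flatMap, List.mem_map, List.mem_range]
    exact ⟨r, hr, a, mem_units ha ha4, b, mem_units hb hb4, rfl⟩)
  rw [gword_wl] at h
  simp only [qWord, List.map_cons, List.map_nil, List.prod_cons, List.prod_nil, mul_one] at h
  rw [← mul_assoc, mul_eq_one_iff_eq_inv, qRoot_inv hr hab] at h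
  exact h

theorem commW_lt {r s t u : ℕ} (hr : r < 12) (hs : s < 12) (ht : t < 4) (hu : u < 4) :
    ∀ p ∈ commW r s t u, p.1 < 12 ∧ p.2 < 4 := by
  intro p hp
  obtain ⟨c, hc, rfl⟩ := List.mem_map.1 hp
  refine ⟨(commTerms_pos r hr s hs c hc).1, ?_⟩
  cases (c.2.1 % 2 != 0)
  · show 0 < 4; norm_num
  · exact mulC_lt _ (powC_lt ht _) _ (powC_lt hu _)

theorem qComm {r s t u : ℕ} (hr : r < 12) (hs : s < 12) (h1 : s ≠ r) (h2 : s ≠ chevG2.neg r)
    (ht : 0 < t) (ht4 : t < 4) (hu : 0 < u) (hu4 : u < 4) :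
    qWord [(s, u), (r, t), (s, u), (r, t)] = qWord (commW r s t u) := by
  have h := of_mem_rels (w := wl ([(s, u), (r, t), (s, u), (r, t)] ++ (commW r s t u).reverse)) (by
    refine List.mem_append_left _ (List.mem_append_right _ ?_)
    simp only [commRels, List.mem_flatMap, List.mem_map, List.mem_range, List.mem_filter]
    exact ⟨r, hr, s, ⟨hs, by simp [h1, h2]⟩, t, mem_units ht ht4, u, mem_units hu hu4, rfl⟩)
  rw [gword_wl, qWord_append, qWord_reverse _ (commW_lt hr hs ht4 hu4), mul_inv_eq_one] at h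
  exact h

theorem hW_lt {r c : ℕ} (hr : r < 12) (hc : c < 4) (hc0 : c ≠ 0) :
    ∀ p ∈ hW r c, p.1 < 12 ∧ p.2 < 4 := by
  intro p hp
  have hn : chevG2.neg r < 12 := GTwoFour.neg_lt r hr
  have hi : invC c < 4 := (invC_spec ⟨c, hc⟩ fun h => hc0 (congrArg Fin.val h)).1
  simp only [hW, List.mem_cons, List.not_mem_nil, or_false] at hp
  rcases hp with rfl | rfl | rfl | rfl | rfl | rfl
  exacts [⟨hr, hc⟩, ⟨hn, hi⟩, ⟨hr, hc⟩, ⟨hr, by show 1 < 4; norm_num⟩,
    ⟨hn, by show 1 < 4; norm_num⟩, ⟨hr, by show 1 < 4; norm_num⟩]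

theorem qTorus {r a b : ℕ} (hr : r < 12) (ha : 0 < a) (ha4 : a < 4) (hb : 0 < b) (hb4 : b < 4)
    (hab : mulC a b ≠ 0) : qWord (hW r a) * qWord (hW r b) = qWord (hW r (mulC a b)) := by
  have h := of_mem_rels (w := wl (hW r a ++ hW r b ++ (hW r (mulC a b)).reverse)) (by
    refine List.mem_append_right _ ?_
    simp only [torusRels, List.mem_flatMap, List.mem_map, List.mem_range]
    exact ⟨r, hr, a, mem_units ha ha4, b, mem_units hb hb4, rfl⟩)
  rw [gword_wl, qWord_append, qWord_append,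
    qWord_reverse _ (hW_lt hr (mulC_lt _ ha4 _ hb4) hab), mul_inv_eq_one] at h
  exact h

variable {F : Type*} [Field F] (e : Fin 4 ≃ F)

/-- The images of the generators. -/
noncomputable def genQ (g : Fin chevG2.nroots × F) : ↥Cov ⧸ Shift := qRoot (g.1, e.symm g.2)

theorem lift_stX {r : ℕ} (hr : r < 12) (t : F) :
    FreeGroup.lift (genQ e) (chevG2.stX r t) = qRoot (r, e.symm t) := by
  rw [ChevalleyDatum.stX, dif_pos (show r < chevG2.nroots from hr), FreeGroup.lift_apply_of]
  rfl

variable (he0 : e 0 = 0) (he1 : e 1 = 1)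
  (hlt : ∀ a b : Fin 4, ((a : ℕ) ^^^ (b : ℕ)) < 4)
  (hadd : ∀ a b : Fin 4, ∀ c : Fin 4, (c : ℕ) = (a : ℕ) ^^^ (b : ℕ) → e c = e a + e b)
  (hmul : ∀ a b : Fin 4, ∀ c : Fin 4, (c : ℕ) = mulC a b → e c = e a * e b)
  (htwo : (2 : F) = 0)
include he0 he1 hlt hadd hmul htwo

theorem lift_rels : ∀ g ∈ chevG2.steinbergRels F, FreeGroup.lift (genQ e) g = 1 := by
  have hinv : ∀ r < 12, ∀ t : F, (FreeGroup.lift (genQ e) (chevG2.stX r t))⁻¹ =
      FreeGroup.lift (genQ e) (chevG2.stX r t) := by
    intro r hr t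
    rw [lift_stX e hr]
    exact qRoot_inv hr (e.symm t).2
  rintro g ((⟨r, t₁, t₂, hr, rfl⟩ | ⟨r, s, t, u, hr, hs, h1, h2, rfl⟩) |
    ⟨r, t₁, t₂, hr, ht₁, ht₂, rfl⟩)
  · rw [map_mul, map_mul, map_inv, mul_inv_eq_one, lift_stX e hr, lift_stX e hr, lift_stX e hr]
    obtain ⟨a, rfl⟩ := e.surjective t₁
    obtain ⟨b, rfl⟩ := e.surjective t₂
    rw [e.symm_apply_apply, e.symm_apply_apply, ← hadd a b ⟨_, hlt a b⟩ rfl, e.symm_apply_apply]
    rcases Nat.eq_zero_or_pos (a : ℕ) with ha | ha
    · simp [ha, qRoot_zero]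
    rcases Nat.eq_zero_or_pos (b : ℕ) with hb | hb
    · simp [hb, qRoot_zero]
    exact qAdd hr ha a.2 hb b.2 (hlt a b)
  · obtain ⟨a, rfl⟩ := e.surjective t
    obtain ⟨b, rfl⟩ := e.surjective u
    have hr12 : r < 12 := hr
    have hs12 : s < 12 := hs
    simp only [map_mul, map_inv, mul_inv_eq_one]
    rw [hinv r hr12, hinv s hs12]
    have hterm : FreeGroup.lift (genQ e) (chevG2.stWord (chevG2.commWord F r s (e a) (e b))) =
        qWord (commW r s a b) := by
      rw [ChevalleyDatum.stWord, map_list_prod, ChevalleyDatum.commWord, List.map_map, List.map_map,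
        qWord, commW, List.map_map]
      refine congrArg List.prod (List.map_congr_left fun c hc => ?_)
      obtain ⟨hc1, -, -⟩ := commTerms_pos r hr12 s hs12 c hc
      show FreeGroup.lift (genQ e) (chevG2.stX c.1 ((c.2.1 : F) * (-e a) ^ c.2.2.1 *
        e b ^ c.2.2.2)) = qRoot (c.1, _)
      rw [lift_stX e hc1, intCast_parity e he0 he1 hadd htwo,
        show -e a = e a by rw [neg_eq_iff_add_eq_zero, ← two_mul, htwo, zero_mul]]
      by_cases hp : (c.2.1 % 2 != 0) = true
      · rw [if_pos hp, hp, cond_true, one_mul, ← e_pow e he0 he1 hadd hmul htwo a,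
          ← e_pow e he0 he1 hadd hmul htwo b,
          ← hmul _ _ ⟨_, mulC_lt _ (powC_lt a.2 _) _ (powC_lt b.2 _)⟩ rfl, e.symm_apply_apply]
      · rw [if_neg hp, Bool.eq_false_iff.2 hp, cond_false, zero_mul, zero_mul, ← he0,
          e.symm_apply_apply]
        rfl
    rw [hterm]
    have hz : (a : ℕ) = 0 ∨ (b : ℕ) = 0 → qWord (commW r s a b) = 1 := fun h => by
      refine List.prod_eq_one fun x hx => ?_
      obtain ⟨p, hp, rfl⟩ := List.mem_map.1 hx
      obtain ⟨c, hc, rfl⟩ := List.mem_map.1 hp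
      obtain ⟨hc1, hi, hj⟩ := commTerms_pos r hr12 s hs12 c hc
      have hz1 : ∀ n, 1 ≤ n → powC 0 n = 0 := by
        intro n hn
        obtain ⟨k, rfl⟩ := Nat.exists_eq_succ_of_ne_zero (by omega : n ≠ 0)
        show mulC (powC 0 k) 0 = 0
        have := powC_lt (show (0 : ℕ) < 4 by norm_num) k
        generalize powC 0 k = q at this ⊢
        interval_cases q <;> rfl
      have hz2 : ∀ q < 4, mulC 0 q = 0 ∧ mulC q 0 = 0 := by decide
      cases hb : (c.2.1 % 2 != 0) with
      | false => rfl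
      | true =>
        rcases h with h | h
        · simp only [cond_true, h, hz1 _ hi, (hz2 _ (powC_lt b.2 _)).1, qRoot_zero]
        · simp only [cond_true, h, hz1 _ hj, (hz2 _ (powC_lt a.2 _)).2, qRoot_zero]
    simp only [lift_stX e hr12, lift_stX e hs12, Equiv.symm_apply_apply]
    rcases Nat.eq_zero_or_pos (a : ℕ) with ha | ha
    · rw [hz (Or.inl ha), ha, qRoot_zero, mul_one, mul_one]
      have := hinv s hs12 (e b)
      rw [lift_stX e hs12, e.symm_apply_apply] at this
      conv_lhs => arg 1; rw [← this]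
      rw [inv_mul_cancel]
    rcases Nat.eq_zero_or_pos (b : ℕ) with hb | hb
    · rw [hz (Or.inr hb), hb, qRoot_zero, one_mul, mul_one]
      have := hinv r hr12 (e a)
      rw [lift_stX e hr12, e.symm_apply_apply] at this
      conv_lhs => arg 1; rw [← this]
      rw [inv_mul_cancel]
    have h := qComm hr12 hs12 h1 h2 ha a.2 hb b.2
    rw [← h]
    simp [qWord, mul_assoc]
  · obtain ⟨a, rfl⟩ := e.surjective t₁
    obtain ⟨b, rfl⟩ := e.surjective t₂
    have ha : (a : ℕ) ≠ 0 := fun h => ht₁ (by rw [show a = 0 from Fin.ext h, he0])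
    have hb : (b : ℕ) ≠ 0 := fun h => ht₂ (by rw [show b = 0 from Fin.ext h, he0])
    have hr12 : r < 12 := hr
    have hW0 : ∀ c : Fin 4, c ≠ 0 →
        FreeGroup.lift (genQ e) (chevG2.stH r (e c)) = qWord (hW r c) := by
      intro c hc
      obtain ⟨hi4, hi1⟩ := invC_spec c hc
      have hc0 : e c ≠ 0 := he0 ▸ e.injective.ne hc
      have hinvc : (e c)⁻¹ = e ⟨invC c, hi4⟩ := by
        refine inv_eq_of_mul_eq_one_right ?_
        rw [← hmul c ⟨invC c, hi4⟩ 1 hi1.symm, he1]
      have hneg : ∀ x : F, -x = x := fun x => by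
        rw [neg_eq_iff_add_eq_zero, ← two_mul, htwo, zero_mul]
      have hs1 : e.symm (1 : F) = 1 := by rw [← he1, e.symm_apply_apply]
      have hn : chevG2.neg r < 12 := neg_lt r hr12
      simp only [ChevalleyDatum.stH, ChevalleyDatum.hWord, ChevalleyDatum.nWord, inv_one, hneg,
        hinvc, List.cons_append, List.nil_append, ChevalleyDatum.stWord, List.map_cons, List.map_nil,
        List.prod_cons, List.prod_nil, map_mul, map_one, lift_stX e hr12, lift_stX e hn,
        Equiv.symm_apply_apply, qWord, hW, hs1]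
      rfl
    have hab : mulC a b < 4 := mulC_lt _ a.2 _ b.2
    have hab0 : (⟨mulC a b, hab⟩ : Fin 4) ≠ 0 := fun h => mul_ne_zero ht₁ ht₂ (by
      rw [← hmul a b ⟨mulC a b, hab⟩ rfl, h, he0])
    rw [map_mul, map_mul, map_inv, mul_inv_eq_one, hW0 a (fun h => ha (by rw [h]; rfl)),
      hW0 b (fun h => hb (by rw [h]; rfl)), ← hmul a b ⟨_, hab⟩ rfl, hW0 _ hab0]
    exact qTorus hr12 (Nat.pos_of_ne_zero ha) a.2 (Nat.pos_of_ne_zero hb) b.2
      (fun h => hab0 (Fin.ext h))

/-- The homomorphism from the Steinberg group. -/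
noncomputable def steinbergHom : chevG2.SteinbergGroup F →* ↥Cov ⧸ Shift :=
  PresentedGroup.toGroup (lift_rels e he0 he1 hlt hadd hmul htwo)

theorem steinbergHom_of (g : Fin chevG2.nroots × F) :
    steinbergHom e he0 he1 hlt hadd hmul htwo (PresentedGroup.of g) = genQ e g :=
  PresentedGroup.toGroup.of _

end CfsgLib.GTwoFourCover
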