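import Cfsg.Agent.GTwoFourCover.Data
import Cfsg.Agent.CosetEnum.Present
import Cfsg.Agent.CosetEnum.Sound
import Mathlib.Data.ZMod.Basic

/-!
Monomial permutations of 2016 points with shifts modulo four.
-/

set_option autoImplicit false
set_option maxRecDepth 100000

namespace CfsgLib.GTwoFourCover

open CfsgLib.CosetEnum

/-- Sixteen bits of a packed table. -/
def img (P i : ℕ) : ℕ := Nat.mod (Nat.shiftRight P (Nat.mul 16 i)) 65536

/-- The table of a letter. -/
def codeOf (x : ℕ) : ℕ := codes.getD x 0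

/-- One step on a point with a shift, coded as `point + 2048 * shift`. -/
def step (P p : ℕ) : ℕ :=
  Nat.mod (Nat.add (img P (Nat.mod p 2048)) (Nat.sub p (Nat.mod p 2048))) 8192

/-- A list of tables on a coded point. -/
noncomputable def evalP (Ps : List ℕ) (p : ℕ) : ℕ :=
  List.rec p (fun P _ r => step P r) Ps

theorem step_def (P p : ℕ) : step P p = (img P (p % 2048) + (p - p % 2048)) % 8192 := rfl

/-- All natural numbers below a bound satisfy a test. -/
noncomputable def below (f : ℕ → Bool) (n : ℕ) : Bool :=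
  Nat.rec true (fun k r => Bool.rec false r (f k)) n

theorem below_iff (f : ℕ → Bool) : ∀ n, below f n = true ↔ ∀ j < n, f j = true := by
  intro n
  induction n with
  | zero => simp [below]
  | succ n ih =>
    show Bool.rec false (below f n) (f n) = true ↔ _
    cases hf : f n with
    | false => exact ⟨fun h => absurd h (by simp), fun h => by simpa [hf] using h n (Nat.lt_succ_self n)⟩
    | true =>
      show below f n = true ↔ _
      rw [ih]
      refine ⟨fun h j hj => ?_, fun h j hj => h j (Nat.lt_succ_of_lt hj)⟩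
      rcases Nat.lt_succ_iff_lt_or_eq.1 hj with hj | rfl
      exacts [h j hj, hf]

/-- A word on a coded point. -/
noncomputable def evalC (w : List ℕ) (p : ℕ) : ℕ := evalP (w.map codeOf) p

/-- A letter permutes the points as an involution. -/
noncomputable def lettersOK : Bool :=
  below (fun x => (fun P => below (fun i => (img P i % 2048).blt 2016 &&
    Nat.beq (img P (img P i % 2048) % 2048) i) 2016) (codeOf x)) 37 &&
  below (fun i => Nat.beq (img (codeOf 36) i) (i + 4096)) 2016

/-- The word is a shift by zero or two. -/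
noncomputable def zrel (w : List ℕ) : Bool :=
  w.all (fun x => x.blt 37) &&
    (fun Ps c => c % 4096 == 0 && below (fun i => Nat.beq (evalP Ps i) (Nat.add i c)) 2016)
      (w.map codeOf) (evalC w 0)

/-- Two words have the same effect. -/
noncomputable def sameOn (u w : List ℕ) : Bool :=
  u.all (fun x => x.blt 37) && w.all (fun x => x.blt 37) &&
    (fun Ps Qs => below (fun i => Nat.beq (evalP Ps i) (evalP Qs i)) 2016) (u.map codeOf) (w.map codeOf)

theorem letters_ok : lettersOK = true := by decide +kernel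

theorem letter_spec {x : ℕ} (hx : x < 37) (i : Fin 2016) :
    img (codeOf x) i % 2048 < 2016 ∧ img (codeOf x) (img (codeOf x) i % 2048) % 2048 = i := by
  have h := letters_ok
  simp only [lettersOK, Bool.and_eq_true, below_iff, Nat.blt, Nat.ble_eq, beq_iff_eq, Nat.beq_eq, Nat.add_eq] at h
  exact h.1 x hx i i.2

theorem unit_spec (i : Fin 2016) : img (codeOf 36) i = i + 4096 := by
  have h := letters_ok
  simp only [lettersOK, Bool.and_eq_true, below_iff, beq_iff_eq, Nat.beq_eq] at h
  exact h.2 i i.2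

/-- A letter on points with shifts. -/
def letterMap {x : ℕ} (hx : x < 37) (p : Fin 2016 × ZMod 4) : Fin 2016 × ZMod 4 :=
  (⟨img (codeOf x) p.1 % 2048, (letter_spec hx p.1).1⟩,
    p.2 + ((img (codeOf x) p.1 / 2048 : ℕ) : ZMod 4))

theorem letterMap_injective {x : ℕ} (hx : x < 37) : Function.Injective (letterMap hx) := by
  intro p q h
  have h1 := congrArg (fun r : Fin 2016 × ZMod 4 => r.1.val) h
  simp only [letterMap] at h1
  have e : p.1 = q.1 := Fin.ext (by
    rw [← (letter_spec hx p.1).2, ← (letter_spec hx q.1).2, h1])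
  refine Prod.ext e ?_
  have h2 := congrArg Prod.snd h
  simp only [letterMap, e] at h2
  exact add_right_cancel h2

/-- A letter as a permutation. -/
noncomputable def letterPerm (x : ℕ) : Equiv.Perm (Fin 2016 × ZMod 4) :=
  if hx : x < 37 then
    Equiv.ofBijective (letterMap hx) (Finite.injective_iff_bijective.1 (letterMap_injective hx))
  else 1

/-- The group. -/
noncomputable def Cov : Subgroup (Equiv.Perm (Fin 2016 × ZMod 4)) :=
  Subgroup.closure {a | ∃ x < 37, letterPerm x = a}

theorem letterPerm_mem (x : ℕ) : letterPerm x ∈ Cov := by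
  by_cases hx : x < 37
  · exact Subgroup.subset_closure ⟨x, hx, rfl⟩
  · rw [letterPerm, dif_neg hx]; exact one_mem _

/-- A letter in the group. -/
noncomputable def letterG (x : ℕ) : Cov := ⟨letterPerm x, letterPerm_mem x⟩

theorem evalP_lt : ∀ (Ps : List ℕ) {p : ℕ}, p < 8192 → evalP Ps p < 8192
  | [], _, h => h
  | _ :: _, _, _ => Nat.mod_lt _ (by norm_num)

theorem gword_apply : ∀ w : List ℕ, (∀ x ∈ w, x < 37) → ∀ p : Fin 2016 × ZMod 4,
    (((gword letterG w : Cov) : Equiv.Perm _) p).1.val = evalC w p.1 % 2048 ∧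
      (((gword letterG w : Cov) : Equiv.Perm _) p).2 =
        p.2 + ((evalC w p.1 / 2048 : ℕ) : ZMod 4)
  | [], _, p => by
    have hp := p.1.2
    refine ⟨?_, ?_⟩
    · show p.1.val = p.1.val % 2048
      omega
    · show p.2 = p.2 + ((p.1.val / 2048 : ℕ) : ZMod 4)
      rw [Nat.div_eq_of_lt (by omega), Nat.cast_zero, add_zero]
  | x :: w, hw, p => by
    have hx : x < 37 := hw x List.mem_cons_self
    obtain ⟨i1, i2⟩ := gword_apply w (fun y hy => hw y (List.mem_cons_of_mem _ hy)) p
    rw [gword_cons, Subgroup.coe_mul, Equiv.Perm.mul_apply]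
    show ((letterPerm x) _).1.val = _ ∧ ((letterPerm x) _).2 = _
    rw [letterPerm, dif_pos hx]
    have he : evalC w p.1 < 8192 := evalP_lt _ (by have := p.1.2; omega)
    have hs : evalC (x :: w) p.1 = step (codeOf x) (evalC w p.1) := rfl
    refine ⟨?_, ?_⟩
    · show img (codeOf x) _ % 2048 = _
      rw [i1, hs, step_def]
      omega
    · show _ + ((_ : ℕ) : ZMod 4) = _
      rw [i2, i1, hs, step_def, add_assoc, ← Nat.cast_add]
      congr 1
      rw [ZMod.natCast_eq_natCast_iff']
      omega

theorem gword_eq {u w : List ℕ} (h : sameOn u w = true) : gword letterG u = gword letterG w := by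
  simp only [sameOn, Bool.and_eq_true, List.all_eq_true, below_iff, Nat.blt, Nat.ble_eq,
    beq_iff_eq, Nat.beq_eq, Nat.add_eq] at h
  obtain ⟨⟨hu, hw⟩, he⟩ := h
  refine Subtype.ext (Equiv.ext fun p => ?_)
  obtain ⟨a1, a2⟩ := gword_apply u hu p
  obtain ⟨b1, b2⟩ := gword_apply w hw p
  have e : evalC u p.1 = evalC w p.1 := he p.1 p.1.2
  exact Prod.ext (Fin.ext (by rw [a1, b1, e])) (by rw [a2, b2, e])

/-- The shift by two. -/
noncomputable def zC : Cov := letterG 36

theorem zC_apply (p : Fin 2016 × ZMod 4) : ((zC : Cov) : Equiv.Perm _) p = (p.1, p.2 + 2) := by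
  show letterPerm 36 p = _
  rw [letterPerm, dif_pos (by norm_num)]
  have hp := p.1.2
  refine Prod.ext (Fin.ext ?_) ?_
  · show img (codeOf 36) p.1 % 2048 = p.1.val
    rw [unit_spec]; omega
  · show p.2 + ((img (codeOf 36) p.1 / 2048 : ℕ) : ZMod 4) = p.2 + 2
    rw [unit_spec, show (p.1.val + 4096) / 2048 = 2 by omega]
    rfl

theorem closure_letterG : Subgroup.closure {a : Cov | ∃ x < 37, letterG x = a} = ⊤ := by
  refine Subgroup.map_injective (f := Cov.subtype) Subtype.val_injective ?_
  rw [MonoidHom.map_closure, ← MonoidHom.range_eq_map, Subgroup.range_subtype]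
  show _ = Subgroup.closure _
  refine congrArg Subgroup.closure (Set.ext fun a => ?_)
  constructor
  · rintro ⟨_, ⟨x, hx, rfl⟩, rfl⟩; exact ⟨x, hx, rfl⟩
  · rintro ⟨x, hx, rfl⟩; exact ⟨_, ⟨x, hx, rfl⟩, rfl⟩

theorem zC_central : zC ∈ Subgroup.center Cov := by
  refine Subgroup.mem_center_iff.2 fun g => ?_
  refine Subgroup.closure_induction (p := fun g _ => g * zC = zC * g) ?_ (by simp)
    (fun u v _ _ hu hv => by rw [mul_assoc, hv, ← mul_assoc, hu, mul_assoc])
    (fun u _ hu => (Commute.inv_left (show Commute u zC from hu)).eq)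
    (closure_letterG ▸ Subgroup.mem_top g)
  rintro _ ⟨x, hx, rfl⟩
  refine Subtype.ext (Equiv.ext fun p => ?_)
  rw [Subgroup.coe_mul, Subgroup.coe_mul, Equiv.Perm.mul_apply, Equiv.Perm.mul_apply, zC_apply,
    zC_apply]
  show letterPerm x _ = _
  simp only [letterG, letterPerm, dif_pos hx]
  refine Prod.ext rfl ?_
  show p.2 + 2 + _ = p.2 + _ + 2
  ring

theorem zC_mul_self : zC * zC = 1 := by
  refine Subtype.ext (Equiv.ext fun p => ?_)
  rw [Subgroup.coe_mul, Equiv.Perm.mul_apply, zC_apply, zC_apply, add_assoc]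
  show (p.1, p.2 + (2 + 2)) = p
  rw [show (2 + 2 : ZMod 4) = 0 from rfl, add_zero]

theorem zC_ne_one : zC ≠ 1 := by
  intro e
  have h := congrArg (fun g : Cov =>
    ((g : Equiv.Perm (Fin 2016 × ZMod 4)) (⟨0, by norm_num⟩, 0)).2) e
  simp only [zC_apply] at h
  exact absurd h (by decide)

theorem orderOf_zC : orderOf zC = 2 :=
  orderOf_eq_prime (p := 2) (hp := ⟨Nat.prime_two⟩) (by rw [pow_two, zC_mul_self]) zC_ne_one

/-- A word acting as a shift by zero or two. -/
theorem gword_mem_zpowers {w : List ℕ} (h : zrel w = true) :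
    gword letterG w ∈ Subgroup.zpowers zC := by
  simp only [zrel, Bool.and_eq_true, List.all_eq_true, below_iff, Nat.blt, Nat.ble_eq,
    beq_iff_eq, Nat.beq_eq, Nat.add_eq] at h
  obtain ⟨hw, hc, he⟩ := h
  have hlt : evalC w 0 < 8192 := evalP_lt _ (by norm_num)
  have key : ∀ p : Fin 2016 × ZMod 4, ((gword letterG w : Cov) : Equiv.Perm _) p =
      (p.1, p.2 + ((evalC w 0 / 2048 : ℕ) : ZMod 4)) := by
    intro p
    obtain ⟨a1, a2⟩ := gword_apply w hw p
    have e : evalC w p.1 = p.1 + evalC w 0 := he p.1 p.1.2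
    have hp := p.1.2
    refine Prod.ext (Fin.ext ?_) ?_
    · rw [a1, e]
      show (p.1.val + evalC w 0) % 2048 = p.1.val
      omega
    · rw [a2, e]
      show p.2 + _ = p.2 + _
      congr 2
      omega
  rcases (show evalC w 0 / 2048 = 0 ∨ evalC w 0 / 2048 = 2 by omega) with h0 | h0
  · refine (show gword letterG w = 1 from Subtype.ext (Equiv.ext fun p => ?_)) ▸ one_mem _
    rw [key, h0, Nat.cast_zero, add_zero]; rfl
  · refine (show gword letterG w = zC from Subtype.ext (Equiv.ext fun p => ?_)) ▸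
      Subgroup.mem_zpowers _
    rw [key, h0, zC_apply]
    rfl

end CfsgLib.GTwoFourCover
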