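import Cfsg.Agent.GTwoFourCover.Hom
import Cfsg.Agent.ChevSteinberg.Data
import Cfsg.Agent.ChevSteinberg.CenterData
import Cfsg.Agent.ChevSteinberg.SteinbergTorus
import Cfsg.Agent.SchurMult.Multiplier
import Cfsg.Agent.S1055
import Cfsg.Agent.S1059

/-!
The multiplier of `G₂(4)`.
-/

set_option autoImplicit false
set_option linter.style.haveILetI false
set_option maxRecDepth 100000

namespace CfsgLib.GTwoFourCover

open CfsgLib.CosetEnum CfsgLib.GTwoFour Cfsg.Lie
open scoped commutatorElement

variable {F : Type} [Field F] [Fintype F]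

theorem qLetter_mem_range (e : Fin 4 ≃ F) (he0 : e 0 = 0) (he1 : e 1 = 1)
    (hlt : ∀ a b : Fin 4, ((a : ℕ) ^^^ (b : ℕ)) < 4)
    (hadd : ∀ a b : Fin 4, ∀ c : Fin 4, (c : ℕ) = (a : ℕ) ^^^ (b : ℕ) → e c = e a + e b)
    (hmul : ∀ a b : Fin 4, ∀ c : Fin 4, (c : ℕ) = mulC a b → e c = e a * e b)
    (htwo : (2 : F) = 0) {x : ℕ} (hx : x < 37) :
    qLetter x ∈ (steinbergHom e he0 he1 hlt hadd hmul htwo).range := by
  rcases Nat.lt_or_ge x 36 with h | h
  · refine ⟨PresentedGroup.of (⟨x / 3, show x / 3 < 12 by omega⟩, e ⟨x % 3 + 1, by omega⟩), ?_⟩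
    rw [steinbergHom_of]
    show qRoot (x / 3, ((e.symm (e ⟨x % 3 + 1, by omega⟩) : Fin 4) : ℕ)) = qLetter x
    rw [e.symm_apply_apply]
    show qLetter (3 * (x / 3) + x % 3) = qLetter x
    rw [Nat.div_add_mod]
  · rw [show x = 36 by omega,
      show qLetter 36 = 1 from (QuotientGroup.eq_one_iff _).2 (Subgroup.mem_zpowers _)]
    exact one_mem _

theorem quot_nontrivial : Nontrivial (↥Cov ⧸ Shift) := by
  refine ⟨⟨qLetter 0, 1, fun e => ?_⟩⟩
  obtain ⟨k, hk⟩ := Subgroup.mem_zpowers_iff.1 ((QuotientGroup.eq_one_iff _).1 e)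
  have hz : ∀ p : Fin 2016 × ZMod 4, (((zC ^ k : Cov) : Equiv.Perm _) p).1 = p.1 := by
    intro p
    have h2 : zC ^ k = 1 ∨ zC ^ k = zC := by
      rcases Int.even_or_odd' k with ⟨j, rfl | rfl⟩
      · exact Or.inl (by rw [zpow_mul, zpow_two, zC_mul_self, one_zpow])
      · exact Or.inr (by rw [zpow_add_one, zpow_mul, zpow_two, zC_mul_self, one_zpow, one_mul])
    rcases h2 with h | h <;> rw [h]
    · rfl
    · rw [zC_apply]
  have ha := (gword_apply [0] (by decide) (⟨14, by norm_num⟩, 0)).1
  rw [gword_cons, gword_nil, mul_one, ← hk, hz] at ha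
  exact root_moves ha.symm

/-- The cover as a stem extension. -/
theorem exists_stemHom (hF : Fintype.card F = 4) : ∃ σ : ↥Cov →* ↥(chevG2.group F),
    Cfsg.IsStemExtension σ ∧ σ.ker = Shift ∧ commutator ↥Cov = ⊤ := by
  obtain ⟨e, he0, he1, hlt, hadd, hmul⟩ := exists_code hF
  have htwo := two_eq_zero_four hF
  let π := CfsgLib.ChevSteinberg.groupProj CfsgLib.Chevalley.sysG2 F
  have hker : π.ker = ⊥ := by
    show (CfsgLib.ChevSteinberg.groupProj CfsgLib.Chevalley.sysG2 F).ker = ⊥
    rw [CfsgLib.ChevSteinberg.groupProj_ker _ _ CfsgLib.ChevSteinberg.witness_G2]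
    exact CfsgLib.ChevSteinberg.center_eq_bot_of_ker_torF _ _ CfsgLib.ChevSteinberg.witness_G2
      CfsgLib.ChevSteinberg.ker_torF_G2
  let eSt : chevG2.SteinbergGroup F ≃* ↥(chevG2.group F) := MulEquiv.ofBijective π
    ⟨(MonoidHom.ker_eq_bot_iff π).1 hker, CfsgLib.ChevSteinberg.groupProj_surjective _ _⟩
  let St := steinbergHom e he0 he1 hlt hadd hmul htwo
  let θ : ↥(chevG2.group F) →* ↥Cov ⧸ Shift := St.comp eSt.symm.toMonoidHom
  have hSt : Function.Surjective St := by
    intro c
    obtain ⟨g, rfl⟩ := QuotientGroup.mk'_surjective Shift c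
    have hle : Subgroup.closure {a : ↥Cov | ∃ x < 37, letterG x = a} ≤
        St.range.comap (QuotientGroup.mk' Shift) := by
      rw [Subgroup.closure_le]
      rintro _ ⟨x, hx, rfl⟩
      exact qLetter_mem_range e he0 he1 hlt hadd hmul htwo hx
    exact hle (closure_letterG ▸ Subgroup.mem_top g)
  have hθs : Function.Surjective θ := hSt.comp eSt.symm.surjective
  obtain ⟨hsimple, hnc⟩ := Cfsg.Agent.S1055.result (F := F)
    ⟨e 2, he0 ▸ e.injective.ne (by decide), he1 ▸ e.injective.ne (by decide)⟩
  haveI := hsimple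
  haveI := quot_nontrivial
  have hθi : Function.Injective θ := by
    rw [← MonoidHom.ker_eq_bot_iff]
    refine θ.normal_ker.eq_bot_or_eq_top.resolve_right fun htop => ?_
    obtain ⟨a, b, hab⟩ := exists_pair_ne (↥Cov ⧸ Shift)
    obtain ⟨a', rfl⟩ := hθs a
    obtain ⟨b', rfl⟩ := hθs b
    exact hab ((MonoidHom.mem_ker.1 (htop ▸ Subgroup.mem_top a')).trans
      (MonoidHom.mem_ker.1 (htop ▸ Subgroup.mem_top b')).symm)
  let ψ := MulEquiv.ofBijective θ ⟨hθi, hθs⟩
  let σ : ↥Cov →* ↥(chevG2.group F) := ψ.symm.toMonoidHom.comp (QuotientGroup.mk' Shift)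
  have hσs : Function.Surjective σ :=
    ψ.symm.surjective.comp (QuotientGroup.mk'_surjective Shift)
  have hk : σ.ker = Shift := by
    ext g
    simp only [σ, MonoidHom.mem_ker, MonoidHom.comp_apply, MulEquiv.coe_toMonoidHom,
      EmbeddingLike.map_eq_one_iff]
    exact QuotientGroup.eq_one_iff g
  have hzd : zC ∈ commutator ↥Cov := by
    have e' := gword_eq comm_ok
    simp only [gword, List.map_append, List.prod_append, List.map_cons, List.map_nil,
      List.prod_cons, List.prod_nil, mul_one] at e'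
    change gword letterG commA * gword letterG commB * zC =
      gword letterG commB * gword letterG commA at e'
    have hz : zC = ⁅(gword letterG commB)⁻¹, (gword letterG commA)⁻¹⁆ := by
      rw [eq_comm, ← inv_mul_eq_iff_eq_mul] at e'
      rw [← e', commutatorElement_def]; group
    rw [hz, commutator_def]
    exact Subgroup.commutator_mem_commutator (Subgroup.mem_top _) (Subgroup.mem_top _)
  have hZd : Shift ≤ commutator ↥Cov := Subgroup.zpowers_le.2 hzd
  have hperfG : commutator ↥(chevG2.group F) = ⊤ := by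
    refine (Subgroup.Normal.eq_bot_or_eq_top inferInstance).resolve_left fun hbot => hnc ?_
    refine ⟨⟨fun a b => ?_⟩⟩
    have h1 : ⁅a, b⁆ ∈ commutator ↥(chevG2.group F) :=
      Subgroup.commutator_mem_commutator (Subgroup.mem_top _) (Subgroup.mem_top _)
    rw [hbot, Subgroup.mem_bot] at h1
    exact commutatorElement_eq_one_iff_mul_comm.1 h1
  refine ⟨σ, ⟨hσs, hk ▸ Subgroup.zpowers_le.2 zC_central, hk ▸ hZd⟩, hk, ?_⟩
  have hmap : (commutator ↥Cov).map σ = ⊤ := by
    rw [commutator_def, Subgroup.map_commutator, Subgroup.map_top_of_surjective _ hσs,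
      ← commutator_def, hperfG]
  rw [eq_top_iff]
  intro g _
  obtain ⟨d, hd, e1⟩ : σ g ∈ (commutator ↥Cov).map σ := hmap ▸ Subgroup.mem_top _
  have hgd : d⁻¹ * g ∈ σ.ker := by
    rw [MonoidHom.mem_ker, map_mul, map_inv, e1, inv_mul_cancel]
  rw [← mul_inv_cancel_left d g]
  exact mul_mem hd (hZd (hk ▸ hgd))

theorem natCard_cov (hF : Fintype.card F = 4) {σ : ↥Cov →* ↥(chevG2.group F)}
    (hs : Function.Surjective σ) (hk : σ.ker = Shift) : Nat.card ↥Cov = 503193600 := by
  have h := Subgroup.index_mul_card σ.ker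
  rw [Subgroup.index_ker, MonoidHom.range_eq_top.2 hs, Subgroup.card_top,
    Cfsg.Agent.S1059.result (q := 4) hF, hk, Nat.card_zpowers, orderOf_zC] at h
  omega

theorem incr_pairwise : ∀ l : List ℕ, incr l = true → l.Pairwise (· < ·)
  | [], _ => List.Pairwise.nil
  | [a], _ => List.pairwise_singleton _ a
  | a :: b :: l, h => by
    simp only [incr, Bool.and_eq_true, Nat.blt, Nat.ble_eq] at h
    have ih := incr_pairwise (b :: l) h.2
    refine List.pairwise_cons.2 ⟨fun x hx => ?_, ih⟩
    rcases List.mem_cons.1 hx with rfl | hx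
    · exact h.1
    · exact lt_trans h.1 (List.rel_of_pairwise_cons ih hx)

/-- The generators of a certificate in the cover. -/
noncomputable def certGen (W : List (List ℕ)) (k : ℕ) : ↥Cov := gword letterG (W.getD k [])

theorem evalW_certGen (W : List (List ℕ)) : ∀ w : List ℕ,
    SchurPrime.evalW (certGen W) w = gword letterG (spell W w)
  | [] => rfl
  | k :: w => by
    rw [SchurPrime.evalW_cons, evalW_certGen W w]
    show gword letterG (W.getD k []) * gword letterG (spell W w) =
      gword letterG (W.getD k [] ++ spell W w)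
    simp [gword]

theorem rules_spec {c : SchurPrime.Cert} {W : List (List ℕ)} (h : rulesOK c W = true) :
    ∀ r < c.rules.length, SchurPrime.evalW (certGen W) (c.rules.getD r ([], [])).1 =
      SchurPrime.evalW (certGen W) (c.rules.getD r ([], [])).2 := by
  intro r hr
  rw [List.getD_eq_getElem _ _ hr]
  rw [evalW_certGen, evalW_certGen]
  exact gword_eq (List.all_eq_true.1 h _ (List.getElem_mem hr))

theorem code_congr {base u w : List ℕ} (hb : ∀ b ∈ base, b < 2016)
    (hu : ∀ x ∈ u, x < 37) (hw : ∀ x ∈ w, x < 37)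
    (h : gword letterG u = gword letterG w) : code base u = code base w := by
  induction base with
  | nil => rfl
  | cons b base ih =>
    obtain ⟨a1, a2⟩ := gword_apply u hu (⟨b, hb b List.mem_cons_self⟩, 0)
    obtain ⟨b1, b2⟩ := gword_apply w hw (⟨b, hb b List.mem_cons_self⟩, 0)
    rw [h] at a1 a2
    have e1 : evalC u b % 2048 = evalC w b % 2048 := a1.symm.trans b1
    have e2 : evalC u b / 2048 % 4 = evalC w b / 2048 % 4 := by
      have e := a2.symm.trans b2
      rw [zero_add, zero_add] at e
      exact (ZMod.natCast_eq_natCast_iff' _ _ 4).1 e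
    have hb' := hb b List.mem_cons_self
    have := evalP_lt (u.map codeOf) (p := b) (by omega)
    have := evalP_lt (w.map codeOf) (p := b) (by omega)
    have e : evalC u b = evalC w b := by
      unfold evalC at e1 e2 ⊢
      omega
    show _ + 8192 * code base u = _ + 8192 * code base w
    rw [ih fun x hx => hb x (List.mem_cons_of_mem _ hx), e]

theorem spell_lt {W : List (List ℕ)} (hW : ∀ w ∈ W, ∀ x ∈ w, x < 37) (w : List ℕ) :
    ∀ x ∈ spell W w, x < 37 := by
  intro x hx
  obtain ⟨k, -, hk⟩ := List.mem_flatMap.1 hx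
  rcases Nat.lt_or_ge k W.length with h | h
  · rw [List.getD_eq_getElem _ _ h] at hk
    exact hW _ (List.getElem_mem h) x hk
  · rw [List.getD_eq_default _ _ h] at hk
    exact absurd hk (by simp)

theorem natCard_closure {c : SchurPrime.Cert} {W : List (List ℕ)} {base : List ℕ}
    {l : List (List ℕ)} (hp : 0 < c.p) (hok : SchurPrime.ok c = true)
    (hr : rulesOK c W = true) (hf : formsOK c.n W base l = true) (hlen : l.length = c.p ^ c.n) :
    Nat.card (Subgroup.closure (certGen W '' {i | i < c.n}) : Subgroup ↥Cov) = c.p ^ c.n := by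
  refine le_antisymm ?_ ?_
  · rw [show Nat.card (Subgroup.closure (certGen W '' {i | i < c.n}) : Subgroup ↥Cov) =
      ((Subgroup.closure (certGen W '' {i | i < c.n}) : Subgroup ↥Cov) : Set ↥Cov).ncard from
        Nat.card_coe_set_eq _]
    have hok' := hok
    simp only [SchurPrime.ok, Bool.and_eq_true, decide_eq_true_eq] at hok'
    exact SchurPrime.ncard_closure_le hp hok'.1.1.1.2 (certGen W)
      (fun r hr' => rules_spec hr r (lt_of_lt_of_le hr' hok'.1.1.1.1.2)) c.n le_rfl
  · simp only [formsOK, Bool.and_eq_true, Nat.blt, Nat.ble_eq, List.all_eq_true] at hf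
    obtain ⟨⟨⟨hb, hW⟩, hl⟩, hincr⟩ := hf
    have hnd := incr_pairwise _ hincr
    let f : Fin l.length → (Subgroup.closure (certGen W '' {i | i < c.n}) : Subgroup ↥Cov) :=
      fun i => ⟨SchurPrime.evalW (certGen W) l[i], by
        refine list_prod_mem fun y hy => ?_
        obtain ⟨x, hx, rfl⟩ := List.mem_map.1 hy
        exact Subgroup.subset_closure ⟨x, hl _ (List.getElem_mem i.2) x hx, rfl⟩⟩
    have hfi : Function.Injective f := by
      intro i j hij
      have e := congrArg Subtype.val hij
      simp only [f, evalW_certGen] at e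
      have hc := code_congr hb (spell_lt hW l[i]) (spell_lt hW l[j]) e
      refine Fin.ext ((List.Nodup.getElem_inj_iff (hnd.imp fun h => ne_of_lt h)
        (hi := by rw [List.length_map]; exact i.2) (hj := by rw [List.length_map]; exact j.2)).1 ?_)
      simp only [List.getElem_map]
      exact hc
    have := Nat.card_le_card_of_injective f hfi
    rwa [Nat.card_fin, hlen] at this

theorem index_eq {H : Subgroup ↥Cov} {k i : ℕ} (hcov : Nat.card ↥Cov = 503193600)
    (hH : Nat.card H = k) (hk : k * i = 503193600) (h0 : 0 < k) : H.index = i := by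
  have h := Subgroup.index_mul_card H
  rw [hH, hcov, ← hk, Nat.mul_comm k i] at h
  exact Nat.eq_of_mul_eq_mul_right h0 h

theorem gword_replicate_flatten (w : List ℕ) : ∀ r : ℕ,
    gword letterG (List.replicate r w).flatten = gword letterG w ^ r
  | 0 => rfl
  | r + 1 => by
    rw [List.replicate_succ, List.flatten_cons, pow_succ', ← gword_replicate_flatten w r]
    simp [gword]

theorem noMult_cyclic {w : List ℕ} {r i : ℕ} (hr : r.Prime) (hcov : Nat.card ↥Cov = 503193600)
    (hw : ∀ x ∈ w, x < 37) (hpow : sameOn (List.replicate r w).flatten [] = true)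
    (hmove : evalC w 0 % 2048 ≠ 0) (hi : r * i = 503193600) (hdvd : ¬ r ∣ i) :
    SchurClassical.NoMult r ↥Cov := by
  have h1 : gword letterG w ^ r = 1 := by
    rw [← gword_replicate_flatten, gword_eq hpow, gword_nil]
  have hne : gword letterG w ≠ 1 := fun e => by
    have a := (gword_apply w hw (⟨0, by norm_num⟩, 0)).1
    rw [e] at a
    exact hmove a.symm
  haveI := Fact.mk hr
  refine SchurClassical.noMult_of_index hr (Subgroup.zpowers (gword letterG w)) ?_
    SchurClassical.noMult_of_isCyclic
  rw [index_eq hcov ((Nat.card_zpowers _).trans (orderOf_eq_prime h1 hne)) hi hr.pos]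
  exact hdvd

theorem noMult_of_forms {c : SchurPrime.Cert} {W : List (List ℕ)} {base : List ℕ}
    {l : List (List ℕ)} {p n i : ℕ} (hperf : commutator ↥Cov = ⊤)
    (hcov : Nat.card ↥Cov = 503193600) (hs : c.p = p ∧ c.n = n) (hp : p.Prime)
    (hok : SchurPrime.ok c = true) (hr : rulesOK c W = true) (hf : formsOK n W base l = true)
    (hlen : l.length = p ^ n) (hi : p ^ n * i = 503193600) (hdvd : ¬ p ∣ i) :
    SchurClassical.NoMult p ↥Cov := by
  obtain ⟨rfl, rfl⟩ := hs
  have hcard := natCard_closure hp.pos hok hr hf hlen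
  exact SchurPrime.noMult_of_cert hperf hp hok (certGen W) (rules_spec hr) hcard
    (by rw [index_eq hcov hcard hi (pow_pos hp.pos _)]; exact hdvd)

/-- The multiplier of `G₂(4)`. -/
theorem hasMultiplier (hF : Fintype.card F = 4) :
    Cfsg.HasCyclicSchurMultiplier ↥(chevG2.group F) 2 := by
  obtain ⟨σ, hσ, hk, hperf⟩ := exists_stemHom hF
  have hcov := natCard_cov hF hσ.1 hk
  have hno : ∀ r, r.Prime → SchurClassical.NoMult r ↥Cov := by
    intro r hr
    by_cases hd : r ∣ 503193600
    · have hdec : ∀ q, q.Prime → ∀ k, r ∣ q ^ k → r = q := fun q hq k h =>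
        (Nat.prime_dvd_prime_iff_eq hr hq).1 (hr.dvd_of_dvd_pow h)
      rw [show (503193600 : ℕ) = 2 ^ 13 * 3 ^ 3 * 5 ^ 2 * 7 ^ 1 * 13 ^ 1 from by norm_num] at hd
      simp only [hr.dvd_mul] at hd
      rcases hd with (((hd | hd) | hd) | hd) | hd
      · obtain rfl := hdec 2 Nat.prime_two _ hd
        exact noMult_of_forms (i := 61425) hperf hcov two_shape hr two_ok two_rules two_forms
          (by rw [two_len]; norm_num) (by norm_num) (by norm_num)
      · obtain rfl := hdec 3 Nat.prime_three _ hd
        exact noMult_of_forms (i := 18636800) hperf hcov three_shape hr three_ok three_rules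
          three_forms (by rw [three_len]; norm_num) (by norm_num) (by norm_num)
      · obtain rfl := hdec 5 Nat.prime_five _ hd
        exact noMult_of_forms (i := 20127744) hperf hcov five_shape hr five_ok five_rules
          five_forms (by rw [five_len]; norm_num) (by norm_num) (by norm_num)
      · obtain rfl := hdec 7 (by norm_num) _ hd
        exact noMult_cyclic (i := 71884800) hr hcov (by decide) seven_ok seven_moves (by norm_num)
          (by norm_num)
      · obtain rfl := hdec 13 (by norm_num) _ hd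
        exact noMult_cyclic (i := 38707200) hr hcov (by decide) thirteen_ok thirteen_moves
          (by norm_num) (by norm_num)
    · refine SchurClassical.noMult_of_index hr ⊥ ?_ SchurClassical.noMult_of_isCyclic
      rw [Subgroup.index_bot, hcov]
      exact hd
  have hck : Nat.card σ.ker = 2 := by rw [hk, Nat.card_zpowers, orderOf_zC]
  haveI : Fact (Nat.Prime 2) := ⟨Nat.prime_two⟩
  exact SchurClassical.hasSchurMultiplier_of_cover σ hσ hperf hno
    (mulEquivOfPrimeCardEq hck (by rw [Nat.card_congr Multiplicative.toAdd, Nat.card_zmod]))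

end CfsgLib.GTwoFourCover
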