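import Cfsg.Agent.GTwoFourCover.Mono
import Cfsg.Agent.GTwoFour.Checks

/-!
Kernel checks of Steinberg's relators in the double cover of `G₂(4)`, up to conjugation.
-/

set_option autoImplicit false
set_option maxRecDepth 100000

namespace CfsgLib.GTwoFourCover

open CfsgLib.CosetEnum CfsgLib.GTwoFour Cfsg.Lie

/-- The letters of a word of root elements with codes. -/
def wl (w : List (ℕ × ℕ)) : List ℕ :=
  w.flatMap fun p => bif p.2 == 0 then [] else [3 * p.1 + p.2 - 1]

/-- The nonzero codes. -/
def units : List ℕ := [1, 2, 3]

/-- The sum relators. -/
def addRels : List (List ℕ) :=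
  (List.range 12).flatMap fun r => units.flatMap fun a => units.map fun b =>
    wl [(r, a), (r, b), (r, a ^^^ b)]

/-- The commutator relators. -/
def commRels : List (List ℕ) :=
  (List.range 12).flatMap fun r =>
    ((List.range 12).filter fun s => !((s == r) || (s == chevG2.neg r))).flatMap fun s =>
      units.flatMap fun t => units.map fun u =>
        wl ([(s, u), (r, t), (s, u), (r, t)] ++ (commW r s t u).reverse)

/-- The torus relators. -/
def torusRels : List (List ℕ) :=
  (List.range 12).flatMap fun r => units.flatMap fun a => units.map fun b =>
    wl (hW r a ++ hW r b ++ (hW r (mulC a b)).reverse)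

/-- The letters permuted by conjugation. -/
def conjOn (g x : ℕ) : ℕ := (conjMaps.getD g []).getD x 0

/-- A relator from a relator checked directly. -/
def derived (d : ℕ × List ℕ) : List ℕ :=
  d.2.foldr (fun g w => w.map (conjOn g)) (reps.getD d.1 [])

/-- The relators are derived as recorded. -/
def derivOK : Bool :=
  decide ((addRels ++ commRels ++ torusRels).length = derivs.length) &&
    ((addRels ++ commRels ++ torusRels).zip derivs).all (fun p =>
      p.1 == derived p.2 && decide (p.2.1 < reps.length) && p.2.2.all fun g => g.blt 4)

/-- The conjugation of one letter. -/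
def conjRel (g x : ℕ) : List ℕ :=
  conjWords.getD g [] ++ [x] ++ (conjWords.getD g []).reverse ++ [conjOn g x]

/-- The conjugations act as recorded. -/
noncomputable def conjOK (g : ℕ) : Bool :=
  (conjWords.getD g []).all (fun x => x.blt 36) &&
    below (fun x => (conjOn g x).blt 36 && zrel (conjRel g x)) 36

/-- Relators checked directly, in parts. -/
noncomputable def repsOK (k : ℕ) : Bool :=
  below (fun i => bif i % 4 == k then
    (reps.getD i []).all (fun x => x.blt 36) && zrel (reps.getD i []) else true) reps.length

theorem deriv_ok : derivOK = true := by decide +kernel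

theorem conj0 : conjOK 0 = true := by decide +kernel
theorem conj1 : conjOK 1 = true := by decide +kernel
theorem conj2 : conjOK 2 = true := by decide +kernel
theorem conj3 : conjOK 3 = true := by decide +kernel

theorem reps0 : repsOK 0 = true := by decide +kernel
theorem reps1 : repsOK 1 = true := by decide +kernel
theorem reps2 : repsOK 2 = true := by decide +kernel
theorem reps3 : repsOK 3 = true := by decide +kernel

theorem square_ok : below (fun x => zrel [x, x]) 36 = true := by decide +kernel

end CfsgLib.GTwoFourCover
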